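import Cfsg.Agent.H306.E6N.Fin
import Cfsg.Agent.H378.OmE6

/-!
# `NotOrd` for `E₆(q)` (helper306, S3480; from helper378's `om_E6`)
-/

set_option autoImplicit false

open Cfsg Cfsg.Lie

namespace Cfsg.Agent.H306.E6N

universe u

theorem om_ne {F : Type u} [Field F] [Finite F] {p : ℕ} [Fact p.Prime] [CharP F p]
    (x : ↥(chevE6.group F)) : ∃ b m : ℕ, NE p (Nat.card F) (orderOf x) b m := by
  obtain ⟨b, m, H⟩ := Cfsg.Agent.H378.OmE6.om_E6 (p := p) (q := Nat.card F) rfl x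
  exact ⟨b, m, H.eq, H.nd, H.s0, H.s1, H.s8⟩

/-- **`NotOrd`** -/
theorem notOrd_E6 (F : Type u) [Field F] [Finite F] : Cfsg.Agent.H367.E6Out.NotOrd F := by
  obtain ⟨p, hp⟩ := CharP.exists F
  have := Fact.mk (CharP.char_is_prime F p)
  exact notOrd (p := p) om_ne

end Cfsg.Agent.H306.E6N
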